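import Cfsg.Agent.CO2.CfgU62
import Cfsg.Agent.H55.CfgThm
import Cfsg.Agent.H55.Orbit
import Cfsg.Prelude.Def_Spor_Conway

/-! The rank three action of the second Conway group on `2300` pairs of minimal vectors. -/

set_option autoImplicit false

namespace Cfsg.Agent.CO2

open Cfsg Cfsg.Agent.H14 Cfsg.Agent.H15 Cfsg.Agent.H55 MulAction
open scoped Pointwise

theorem r3_quot {G Ω : Type*} [Group G] [MulAction G Ω] (a : Ω) (g : G) :
    (orbit (stabilizer G a) (g : G ⧸ stabilizer G a)).ncard = (orbit (stabilizer G a) (g • a)).ncard := by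
  rw [← Set.ncard_image_of_injective _ (injective_ofQuotientStabilizer G a)]
  congr 1
  ext y
  constructor
  · rintro ⟨_, ⟨h, rfl⟩, rfl⟩
    exact ⟨h, (ofQuotientStabilizer_smul G a (h : G) g).symm⟩
  · rintro ⟨h, rfl⟩
    exact ⟨_, ⟨h, rfl⟩, ofQuotientStabilizer_smul G a (h : G) g⟩

theorem r3_half {V : Type*} [AddCommGroup V] (u : V) {S : Set V} (hS : S.Finite)
    (h1 : ∀ y ∈ S, u - y ∈ S) (h2 : ∀ y ∈ S, u - y ≠ y) :
    S.ncard = 2 * ((fun y => ({y, u - y} : Set V)) '' S).ncard := by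
  classical
  lift S to Finset V using hS
  rw [← Finset.coe_image, Set.ncard_coe_finset, Set.ncard_coe_finset,
    Finset.card_eq_sum_card_image (fun y => ({y, u - y} : Set V)), Finset.sum_const_nat (m := 2), mul_comm]
  intro s hs
  obtain ⟨y, hy, rfl⟩ := Finset.mem_image.1 hs
  rw [← Finset.card_pair (h2 y hy).symm]
  congr 1
  ext x
  simp only [Finset.mem_filter, Finset.mem_insert, Finset.mem_singleton]
  refine ⟨fun ⟨_, e⟩ => ?_, ?_⟩
  · have : x ∈ ({y, u - y} : Set V) := e ▸ Set.mem_insert _ _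
    simpa using this
  · rintro (rfl | rfl)
    · exact ⟨hy, rfl⟩
    · exact ⟨h1 y hy, by rw [sub_sub_cancel, Set.pair_comm]⟩

theorem r3_sub {u y : leechLattice} (hu : sqNorm (u : Vec) = 32) (hy : y ∈ XS [u] [16]) :
    u - y ∈ XS [u] [16] := by
  rw [mem_XS1] at hy ⊢
  rw [AddSubgroup.coe_sub, sqNorm_sub, dot_sub_right, dot_self, hu, hy.1, hy.2]
  decide

theorem r3_ne {u y : leechLattice} (hu : sqNorm (u : Vec) = 32) (hy : y ∈ XS [u] [16]) : u - y ≠ y := by
  intro e
  rw [mem_XS1] at hy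
  have := congrArg (fun x : leechLattice => dotInt (y : Vec) (x : Vec)) e
  simp only [AddSubgroup.coe_sub] at this
  rw [dot_sub_right, dot_self, dot_comm, hy.1, hy.2] at this
  exact absurd this (by decide)

theorem r3_trans {u y y' : leechLattice} (hu : sqNorm (u : Vec) = 32) (hy : y ∈ XS [u] [16])
    (hy' : y' ∈ XS [u] [16]) : ∃ g : Co0, g • u = u ∧ g • y = y' := by
  rw [mem_XS1] at hy hy'
  obtain ⟨g, h1, h2⟩ := trans_pair_m16 u (-y) u (-y') hu hu ((sqNorm_neg _).trans hy.1)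
    ((sqNorm_neg _).trans hy'.1) (by rw [AddSubgroup.coe_neg, dot_neg_right, hy.2])
    (by rw [AddSubgroup.coe_neg, dot_neg_right, hy'.2])
  rw [co0_smul_neg] at h2
  exact ⟨g, h1, neg_injective h2⟩

theorem r3_main {G : Type*} [Group G] (φ : G →* Co0) {u v : leechLattice} (hu : sqNorm (u : Vec) = 32)
    (hv : v ∈ XS [u] [16]) (h1 : ∀ g, φ g • u = u) (h2 : ∀ k : Co0, k • u = u → ∃ g, φ g = k)
    (r0 : Rp [v, u] [16, 16] 891) (r1 : Rp [v, u] [8, 16] 2816) :
    ∃ H : Subgroup G, IsCoatom H ∧ H.index = 2300 ∧ ∃ q₁ q₂ : G ⧸ H,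
      (orbit H q₁).ncard = 891 ∧ (orbit H q₂).ncard = 1408 := by
  classical
  letI : MulAction G (Set leechLattice) := MulAction.compHom _ φ
  let P : leechLattice → Set leechLattice := fun y => {y, u - y}
  have hP : ∀ (g : G) y, g • P y = P (φ g • y) := fun g y => by
    change φ g • ({y, u - y} : Set leechLattice) = _
    rw [Set.smul_set_insert, Set.smul_set_singleton, co0_smul_sub, h1]
  have hX : ∀ (g : G), ∀ y ∈ XS [u] [16], φ g • y ∈ XS [u] [16] := fun g y hy => by
    have := (smul_mem_XS (φ g)).2 hy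
    rwa [List.map_singleton, h1] at this
  have hXf : (XS [u] [16]).Finite := Set.finite_of_ncard_ne_zero (by rw [x4600 hu]; omega)
  have horb : orbit G (P v) = P '' XS [u] [16] := by
    ext s
    constructor
    · rintro ⟨g, rfl⟩
      exact ⟨_, hX g v hv, (hP g v).symm⟩
    · rintro ⟨y, hy, rfl⟩
      obtain ⟨k, k1, k2⟩ := r3_trans hu hv hy
      obtain ⟨g, rfl⟩ := h2 k k1
      exact ⟨g, (hP g v).trans (congrArg P k2)⟩
  have hc : (orbit G (P v)).ncard = 2300 := by
    have := r3_half u hXf (fun y hy => r3_sub hu hy) (fun y hy => r3_ne hu hy)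
    rw [x4600 hu] at this
    rw [horb]
    change _ = 2 * (P '' _).ncard at this
    omega
  let f : Set leechLattice → ℤ := fun s => sSup ((fun y : leechLattice => dotInt (v : Vec) (y : Vec)) '' s)
  have hvu : dotInt (v : Vec) (u : Vec) = 16 := by rw [dot_comm, (mem_XS1.1 hv).2]
  have hf : ∀ y, f (P y) = max (dotInt (v : Vec) (y : Vec)) (16 - dotInt (v : Vec) (y : Vec)) := fun y => by
    simp only [f, P, Set.image_pair, csSup_pair, AddSubgroup.coe_sub, dot_sub_right, hvu]
  have hlow : ∀ y, P '' orbit (Fx [v, u]) y ⊆ orbit (stabilizer G (P v)) (P y) := by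
    rintro y _ ⟨_, ⟨k, rfl⟩, rfl⟩
    obtain ⟨g, hg⟩ := h2 k (k.2 u (by simp))
    refine ⟨⟨g, ?_⟩, ?_⟩
    · rw [mem_stabilizer_iff, hP, hg, k.2 v (by simp)]
    · exact (hP g y).trans (by rw [hg]; rfl)
  have hfin : ∀ y ∈ XS [u] [16], (orbit (stabilizer G (P v)) (P y)).Finite := fun y hy =>
    (hXf.image P).subset (by
      rintro _ ⟨g, rfl⟩
      exact ⟨_, hX g y hy, (hP g y).symm⟩)
  obtain ⟨y0, m0, n0⟩ := r0
  obtain ⟨y1, m1, n1⟩ := r1
  have a0 := mem_XS_cons.1 m0
  have a1 := mem_XS_cons.1 m1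
  have S : Suborbits (stabilizer G (P v)) (orbit G (P v)) f ![32, 16, 8] ![1, 891, 1408] := by
    refine Suborbits.of_lower ?_ (horb ▸ hXf.image P) (by decide) ![P v, P y0, P y1] ?_ ?_
      (by rw [hc]; decide) ?_
    · rintro h s hs
      refine ⟨mem_orbit_of_mem_orbit (h : G) hs, ?_⟩
      rw [horb] at hs
      obtain ⟨y, hy, rfl⟩ := hs
      have e : P (φ h • v) = P v := (hP h v).symm.trans h.2
      have m : φ h • v ∈ P v := e.le (Set.mem_insert _ _)
      change f ((h : G) • P y) = _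
      rw [hP, hf, hf]
      have d := co0_dot (φ h) v y
      rcases m with m | m
      · rw [m] at d; rw [d]
      · rw [Set.mem_singleton_iff.1 m, AddSubgroup.coe_sub, dot_sub_left, (mem_XS1.1 (hX h y hy)).2] at d
        rw [← d, sub_sub_cancel, max_comm]
    · intro i
      rw [horb]
      fin_cases i
      exacts [⟨v, hv, rfl⟩, ⟨y0, a0.1, rfl⟩, ⟨y1, a1.1, rfl⟩]
    · intro i
      fin_cases i
      · change f (P v) = 32
        rw [hf, dot_self, (mem_XS1.1 hv).1]; rfl
      · change f (P y0) = 16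
        rw [hf, a0.2]; rfl
      · change f (P y1) = 8
        rw [hf, a1.2]; rfl
    · intro i
      fin_cases i
      · exact (Set.ncard_pos (hfin v hv)).2 ⟨_, mem_orbit_self _⟩
      · refine n0.trans (le_trans ?_ (Set.ncard_le_ncard (hlow y0) (hfin y0 a0.1)))
        refine (Set.ncard_image_of_injOn fun x hx y hy e => ?_).ge
        have m : x ∈ P y := e ▸ Set.mem_insert _ _
        refine m.resolve_right fun m => ?_
        have b := (mem_XS_cons.1 (orbit_subset_XS m0 hx)).2
        rw [Set.mem_singleton_iff.1 m, AddSubgroup.coe_sub, dot_sub_right, hvu,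
          (mem_XS_cons.1 (orbit_subset_XS m0 hy)).2] at b
        exact absurd b (by decide)
      · refine le_trans ?_ (Set.ncard_le_ncard (hlow y1) (hfin y1 a1.1))
        have sub : orbit (Fx [v, u]) y1 ⊆
            (fun p : Set leechLattice × Bool => if p.2 then (if h : p.1.Nonempty then h.some else 0)
              else u - (if h : p.1.Nonempty then h.some else 0)) ''
              ((P '' orbit (Fx [v, u]) y1) ×ˢ Set.univ) := fun x hx => by
          have hn : (P x).Nonempty := ⟨x, Set.mem_insert _ _⟩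
          rcases hn.some_mem with e | e
          · exact ⟨(P x, true), ⟨⟨x, hx, rfl⟩, trivial⟩, by simp only [if_true, dif_pos hn, e]⟩
          · refine ⟨(P x, false), ⟨⟨x, hx, rfl⟩, trivial⟩, ?_⟩
            simp only [Bool.false_eq_true, if_false, dif_pos hn, Set.mem_singleton_iff.1 e, sub_sub_cancel]
        have fin : ((P '' orbit (Fx [v, u]) y1) ×ˢ (Set.univ : Set Bool)).Finite :=
          ((orbit_fin _ _).image P).prod Set.finite_univ
        have := (Set.ncard_le_ncard sub (fin.image _)).trans (Set.ncard_image_le fin)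
        rw [Set.ncard_prod, Set.ncard_univ, Nat.card_eq_fintype_card, Fintype.card_bool] at this
        change 1408 ≤ _
        omega
  refine ⟨stabilizer G (P v), S.isCoatom 0 ?_ (by decide) (by decide), by rw [index_stabilizer, hc], ?_⟩
  · change f (P v) = 32
    rw [hf, dot_self, (mem_XS1.1 hv).1]; rfl
  obtain ⟨_, ⟨g1, rfl⟩, e1⟩ := S.exists_rep 1 (by decide)
  obtain ⟨_, ⟨g2, rfl⟩, e2⟩ := S.exists_rep 2 (by decide)
  exact ⟨g1, g2, (r3_quot _ g1).trans (S.ncard_orbit ⟨g1, rfl⟩ e1),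
    (r3_quot _ g2).trans (S.ncard_orbit ⟨g2, rfl⟩ e2)⟩

theorem rank3_of_iso {G : Type*} [Group G] (h : Spor.IsoCo2 G) :
    ∃ H : Subgroup G, IsCoatom H ∧ H.index = 2300 ∧ ∃ q₁ q₂ : G ⧸ H,
      (orbit H q₁).ncard = 891 ∧ (orbit H q₂).ncard = 1408 := by
  obtain ⟨e⟩ := h
  have hu : lpt CfgU62.u = Spor.leechU := lpt_eq (by decide +kernel)
  refine r3_main ((Subgroup.inclusion (inf_le_left : Spor.Co2 ≤ Co0)).comp e.toMonoidHom)
    (u := lpt CfgU62.u) (v := lpt CfgU62.v) (lpt_norm (by decide +kernel))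
    (lpt_XS (fx := [_]) (by decide +kernel)) (fun g => ?_) (fun k hk => ?_) CfgU62.r0 CfgU62.r1
  · rw [hu]; exact (e g).2.2
  · rw [hu] at hk
    exact ⟨e.symm ⟨k, k.2, hk⟩, Subtype.ext (congrArg (fun x : Spor.Co2 => x.1) (e.apply_symm_apply ⟨k, k.2, hk⟩))⟩

end Cfsg.Agent.CO2
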